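import Cfsg.Agent.H125.Hall.Defs
import Cfsg.Agent.H656.FineExc2

/-!
# S2223, ALS rows of `F₄(q)`, `E₆(q)`, `E₇(q)`, `E₈(q)`, `²E₆(q)`, `q` odd (HALLPRO ALS8)

`als_f4`, `als_e6`, `als_e7`, `als_e8`, `als_2e6`.
-/

set_option autoImplicit false

namespace Cfsg.Agent.H669.Hall

open Cfsg.Lie Cfsg.Agent.H125.Hall Cfsg.Agent.H656.FineExc2

/-- the criterion -/
theorem als_of_ls {T : Type} [Group T] [Finite T] {r N E q : ℕ} (hrT : r ∣ Nat.card T)
    (hLS : Cfsg.Agent.H203.LS.LS.{0, 0, 0} r N T) (hq : 1 ≤ q)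
    (hc : Nat.card (MulAut T) ≤ q ^ E) (hN : 2 * (E * (q - 1)) + 4 ≤ 3 * N) (hN' : 27 < N) : ALS T := by
  rintro m ⟨k, _, P, _, _, π, ρ, hπ, hcen, hper, hρ, hk⟩
  have hr : (r : k) ≠ 0 := by
    intro h
    apply hk
    obtain ⟨c, hc⟩ := hrT
    rw [hc, Nat.cast_mul, h, zero_mul]
  have hm : N ≤ m := hLS P π hπ hcen hper k hr m ρ hρ
  have hv : v2 T ≤ E * (q - 1) := by
    have h1 : 2 ^ v2 T ∣ Nat.card (MulAut T) := Nat.ordProj_dvd _ _
    have h2 : 2 ^ v2 T ≤ Nat.card (MulAut T) := Nat.le_of_dvd Nat.card_pos h1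
    have h3 : q ≤ 2 ^ (q - 1) := by
      have := Nat.lt_two_pow_self (n := q - 1)
      omega
    have h4 : 2 ^ v2 T ≤ 2 ^ (E * (q - 1)) := by
      calc 2 ^ v2 T ≤ q ^ E := h2.trans hc
        _ ≤ (2 ^ (q - 1)) ^ E := Nat.pow_le_pow_left h3 E
        _ = 2 ^ (E * (q - 1)) := by rw [← pow_mul, mul_comm]
    exact (Nat.pow_le_pow_iff_right (by norm_num)).1 h4
  refine ⟨by omega, by omega, by omega, by omega⟩

/-- the numerical condition -/
theorem num {q k E : ℕ} (hq : 3 ≤ q) (hE : 2 * E + 4 ≤ 3 * 3 ^ k) (hk : 14 ≤ 3 ^ k) :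
    2 * (E * (q - 1)) + 4 ≤ 3 * ((q - 1) * q ^ k) ∧ 27 < (q - 1) * q ^ k := by
  have h4 : 3 ^ k ≤ q ^ k := Nat.pow_le_pow_left hq k
  have h5 : (q - 1) * (2 * E + 4) ≤ (q - 1) * (3 * q ^ k) := Nat.mul_le_mul_left _ (hE.trans (by omega))
  have h6 : (q - 1) * (2 * E + 4) = 2 * (E * (q - 1)) + 4 * (q - 1) := by ring
  have h7 : (q - 1) * (3 * q ^ k) = 3 * ((q - 1) * q ^ k) := by ring
  have h8 : 2 * 14 ≤ (q - 1) * q ^ k := Nat.mul_le_mul (by omega) (hk.trans h4)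
  omega

/-- **`F₄(q)`** -/
theorem als_f4 {F : Type} [Field F] [Fintype F] (hodd : Odd (Fintype.card F)) : ALS ↥(chevF4.group F) := by
  obtain ⟨p, f, hp, hf, hF, h2f, hq⟩ := H489.exists_pf F
  have h3 : 3 ≤ Fintype.card F := by obtain ⟨c, hc⟩ := hodd; omega
  have : Fact p.Prime := ⟨hp⟩
  have := H489.charP_of hp hf hF
  obtain ⟨hs, hna⟩ := Cfsg.Agent.S1054.result (F := F) chevF4 (by simp)
  have hcT := S1062.result (F := F) rfl
  have ho := S2122.result p f hF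
  have hpq : p ∣ Fintype.card F := by rw [hF]; exact dvd_pow_self p (by omega)
  have hls := ls_f4.{0} (r := p) F (by rw [Nat.card_eq_fintype_card]; exact h3)
  rw [Nat.card_eq_fintype_card] at hls
  set q := Fintype.card F
  have hdv : p ∣ Nat.card ↥(chevF4.group F) := by
    rw [hcT]
    exact hpq.trans (by repeat (first | exact dvd_pow_self _ (by norm_num) | apply Dvd.dvd.mul_right))
  have hle : 1 * Nat.card ↥(chevF4.group F) ≤ q ^ 52 := by
    rw [hcT]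
    calc 1 * (q ^ 24 * (q ^ 2 - 1) * (q ^ 6 - 1) * (q ^ 8 - 1) * (q ^ 12 - 1))
        ≤ 1 * (q ^ 24 * q ^ 2 * q ^ 6 * q ^ 8 * q ^ 12) := by gcongr <;> exact Nat.sub_le _ _
      _ = q ^ 52 := by ring
  have hfin : Finite ↥(chevF4.group F) := inferInstance
  obtain ⟨n1, n2⟩ := num (q := q) (k := 4) (E := 53) h3 (by norm_num) (by norm_num)
  refine als_of_ls (q := q) hdv hls (by omega) (E := 53) ?_ n1 n2
  refine (card_aut hna (o := q) (g := 1) ?_ hle).trans (by ring_nf; rfl)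
  rw [ho, mul_one]
  exact (Nat.mul_le_mul_right _ (Nat.gcd_le_left _ (by norm_num))).trans h2f

/-- **`E₆(q)`** -/
theorem als_e6 {F : Type} [Field F] [Fintype F] (hodd : Odd (Fintype.card F)) : ALS ↥(chevE6.group F) := by
  obtain ⟨p, f, hp, hf, hF, h2f, hq⟩ := H489.exists_pf F
  have h3 : 3 ≤ Fintype.card F := by obtain ⟨c, hc⟩ := hodd; omega
  have : Fact p.Prime := ⟨hp⟩
  have := H489.charP_of hp hf hF
  obtain ⟨hs, hna⟩ := Cfsg.Agent.S1054.result (F := F) chevE6 (by simp)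
  have hcT := S1063.result (F := F) rfl
  have ho := S2123.result p f hF
  rw [← hF] at ho
  have hpq : p ∣ Fintype.card F := by rw [hF]; exact dvd_pow_self p (by omega)
  have hls := Cfsg.Agent.H203.LS.E6.ls.{0, 0, 0} (r := p) F
  rw [Nat.card_eq_fintype_card] at hls
  set q := Fintype.card F
  have hdv : p ∣ Nat.card ↥(chevE6.group F) := by
    refine dvd_of hp hpq (not_dvd_gcd hp hpq (by omega)) hcT ?_
    repeat (first | exact dvd_pow_self _ (by norm_num) | apply Dvd.dvd.mul_right)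
  have hle : Nat.gcd 3 (q - 1) * Nat.card ↥(chevE6.group F) ≤ q ^ 78 := by
    rw [hcT]
    calc q ^ 36 * (q ^ 2 - 1) * (q ^ 5 - 1) * (q ^ 6 - 1) * (q ^ 8 - 1) * (q ^ 9 - 1) * (q ^ 12 - 1)
        ≤ q ^ 36 * q ^ 2 * q ^ 5 * q ^ 6 * q ^ 8 * q ^ 9 * q ^ 12 := by gcongr <;> exact Nat.sub_le _ _
      _ = q ^ 78 := by ring
  have hfin : Finite ↥(chevE6.group F) := inferInstance
  obtain ⟨n1, n2⟩ := num (q := q) (k := 10) (E := 79) h3 (by norm_num) (by norm_num)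
  refine als_of_ls (q := q) hdv hls (by omega) (E := 79) ?_ n1 n2
  refine (card_aut hna (o := q) ?_ hle).trans (by ring_nf; rfl)
  rw [ho]
  calc 2 * Nat.gcd 3 (q - 1) * f = 2 * f * Nat.gcd 3 (q - 1) := by ring
    _ ≤ q * Nat.gcd 3 (q - 1) := Nat.mul_le_mul_right _ h2f

/-- **`E₇(q)`** -/
theorem als_e7 {F : Type} [Field F] [Fintype F] (hodd : Odd (Fintype.card F)) : ALS ↥(chevE7.group F) := by
  obtain ⟨p, f, hp, hf, hF, h2f, hq⟩ := H489.exists_pf F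
  have h3 : 3 ≤ Fintype.card F := by obtain ⟨c, hc⟩ := hodd; omega
  have : Fact p.Prime := ⟨hp⟩
  have := H489.charP_of hp hf hF
  obtain ⟨hs, hna⟩ := Cfsg.Agent.S1054.result (F := F) chevE7 (by simp)
  have hcT := S1064.result (F := F) rfl
  have ho := S2124.result p f hF
  rw [← hF] at ho
  have hpq : p ∣ Fintype.card F := by rw [hF]; exact dvd_pow_self p (by omega)
  have hls := Cfsg.Agent.H203.LS.E7.ls.{0, 0, 0} (r := p) F
  rw [Nat.card_eq_fintype_card] at hls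
  set q := Fintype.card F
  have hdv : p ∣ Nat.card ↥(chevE7.group F) := by
    refine dvd_of hp hpq (not_dvd_gcd hp hpq (by omega)) hcT ?_
    repeat (first | exact dvd_pow_self _ (by norm_num) | apply Dvd.dvd.mul_right)
  have hle : Nat.gcd 2 (q - 1) * Nat.card ↥(chevE7.group F) ≤ q ^ 133 := by
    rw [hcT]
    calc q ^ 63 * (q ^ 2 - 1) * (q ^ 6 - 1) * (q ^ 8 - 1) * (q ^ 10 - 1) * (q ^ 12 - 1) * (q ^ 14 - 1) * (q ^ 18 - 1)
        ≤ q ^ 63 * q ^ 2 * q ^ 6 * q ^ 8 * q ^ 10 * q ^ 12 * q ^ 14 * q ^ 18 := by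
          gcongr <;> exact Nat.sub_le _ _
      _ = q ^ 133 := by ring
  have hfin : Finite ↥(chevE7.group F) := inferInstance
  obtain ⟨n1, n2⟩ := num (q := q) (k := 16) (E := 134) h3 (by norm_num) (by norm_num)
  refine als_of_ls (q := q) hdv hls (by omega) (E := 134) ?_ n1 n2
  refine (card_aut hna (o := q) ?_ hle).trans (by ring_nf; rfl)
  rw [ho]
  calc Nat.gcd 2 (q - 1) * f = f * Nat.gcd 2 (q - 1) := by ring
    _ ≤ q * Nat.gcd 2 (q - 1) := Nat.mul_le_mul_right _ (by omega)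

/-- **`E₈(q)`** -/
theorem als_e8 {F : Type} [Field F] [Fintype F] (hodd : Odd (Fintype.card F)) : ALS ↥(chevE8.group F) := by
  obtain ⟨p, f, hp, hf, hF, h2f, hq⟩ := H489.exists_pf F
  have h3 : 3 ≤ Fintype.card F := by obtain ⟨c, hc⟩ := hodd; omega
  have : Fact p.Prime := ⟨hp⟩
  have := H489.charP_of hp hf hF
  obtain ⟨hs, hna⟩ := Cfsg.Agent.S1054.result (F := F) chevE8 (by simp)
  have hcT := S1065.result (F := F) rfl
  have ho := S2125.result p f hF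
  have hpq : p ∣ Fintype.card F := by rw [hF]; exact dvd_pow_self p (by omega)
  have hls := Cfsg.Agent.H203.LS.E8.ls.{0, 0, 0} (r := p) F
  rw [Nat.card_eq_fintype_card] at hls
  set q := Fintype.card F
  have hdv : p ∣ Nat.card ↥(chevE8.group F) := by
    rw [hcT]
    exact hpq.trans (by repeat (first | exact dvd_pow_self _ (by norm_num) | apply Dvd.dvd.mul_right))
  have hle : 1 * Nat.card ↥(chevE8.group F) ≤ q ^ 248 := by
    rw [hcT]
    calc 1 * (q ^ 120 * (q ^ 2 - 1) * (q ^ 8 - 1) * (q ^ 12 - 1) * (q ^ 14 - 1) * (q ^ 18 - 1) * (q ^ 20 - 1) *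
          (q ^ 24 - 1) * (q ^ 30 - 1))
        ≤ 1 * (q ^ 120 * q ^ 2 * q ^ 8 * q ^ 12 * q ^ 14 * q ^ 18 * q ^ 20 * q ^ 24 * q ^ 30) := by
          gcongr <;> exact Nat.sub_le _ _
      _ = q ^ 248 := by ring
  have hfin : Finite ↥(chevE8.group F) := inferInstance
  obtain ⟨n1, n2⟩ := num (q := q) (k := 28) (E := 249) h3 (by norm_num) (by norm_num)
  refine als_of_ls (q := q) hdv hls (by omega) (E := 249) ?_ n1 n2
  refine (card_aut hna (o := q) (g := 1) ?_ hle).trans (by ring_nf; rfl)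
  rw [ho, mul_one]
  omega

/-- **`²E₆(q)`** -/
theorem als_2e6 {F : Type} [Field F] [Fintype F] {q : ℕ} (hK : Fintype.card F = q ^ 2) (hodd : Odd q) :
    ALS ↥(twistedE6 F q) := by
  have hqp : IsPrimePow q := by
    have h1 : IsPrimePow (Fintype.card F) := Fintype.isPrimePow_card_of_field
    rw [hK] at h1
    exact (isPrimePow_pow_iff (by norm_num)).1 h1
  obtain ⟨p, f, hp, hc, hf, hqf, hKf, h2f, hq⟩ := H489.exists_pf_of hqp hK (by norm_num)
  have h3 : 3 ≤ q := by obtain ⟨c, hc⟩ := hodd; omega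
  have : Fact p.Prime := ⟨hp⟩
  obtain ⟨hs, hna⟩ := Cfsg.Agent.S1070.result hqp hK
  have hcT := S1066.result hqp hK
  have ho := S2130.result p f hKf hf
  rw [← hqf] at ho
  have hpq : p ∣ q := by rw [hqf]; exact dvd_pow_self p (by omega)
  have hls := Cfsg.Agent.H656.LSTwE6.ls.{0, 0, 0} (r := p) hqp hK
  have hdv : p ∣ Nat.card ↥(twistedE6 F q) := by
    refine dvd_of hp hpq (not_dvd_gcd' hp hpq) hcT ?_
    repeat (first | exact dvd_pow_self _ (by norm_num) | apply Dvd.dvd.mul_right)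
  have h1 : (q ^ 2 - 1) * (q ^ 5 + 1) ≤ q ^ 7 := by
    have e1 : (q ^ 2 - 1) * (q ^ 5 + 1) + (q ^ 5 + 1) = q ^ 2 * (q ^ 5 + 1) := by
      rw [← Nat.succ_mul]
      congr 1
      have : 0 < q ^ 2 := Nat.pow_pos (by omega)
      omega
    have e2 : q ^ 2 * (q ^ 5 + 1) = q ^ 7 + q ^ 2 := by ring
    have e3 : q ^ 2 ≤ q ^ 5 := Nat.pow_le_pow_right (by omega) (by norm_num)
    omega
  have h2 : (q ^ 6 - 1) * (q ^ 9 + 1) ≤ q ^ 15 := by
    have e1 : (q ^ 6 - 1) * (q ^ 9 + 1) + (q ^ 9 + 1) = q ^ 6 * (q ^ 9 + 1) := by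
      rw [← Nat.succ_mul]
      congr 1
      have : 0 < q ^ 6 := Nat.pow_pos (by omega)
      omega
    have e2 : q ^ 6 * (q ^ 9 + 1) = q ^ 15 + q ^ 6 := by ring
    have e3 : q ^ 6 ≤ q ^ 9 := Nat.pow_le_pow_right (by omega) (by norm_num)
    omega
  have hle : Nat.gcd 3 (q + 1) * Nat.card ↥(twistedE6 F q) ≤ q ^ 78 := by
    rw [hcT]
    calc q ^ 36 * (q ^ 2 - 1) * (q ^ 5 + 1) * (q ^ 6 - 1) * (q ^ 8 - 1) * (q ^ 9 + 1) * (q ^ 12 - 1)
        = q ^ 36 * ((q ^ 2 - 1) * (q ^ 5 + 1)) * ((q ^ 6 - 1) * (q ^ 9 + 1)) * (q ^ 8 - 1) * (q ^ 12 - 1) := by ring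
      _ ≤ q ^ 36 * q ^ 7 * q ^ 15 * q ^ 8 * q ^ 12 := by
          refine Nat.mul_le_mul (Nat.mul_le_mul (Nat.mul_le_mul (Nat.mul_le_mul le_rfl h1) h2) ?_) ?_ <;>
            exact Nat.sub_le _ _
      _ = q ^ 78 := by ring
  have hfin : Finite ↥(twistedE6 F q) := inferInstance
  refine als_of_ls (q := q) hdv hls (by omega) (E := 79) ?_ ?_ ?_
  · refine (card_aut hna (o := q) ?_ hle).trans (by ring_nf; rfl)
    rw [ho]
    calc 2 * Nat.gcd 3 (q + 1) * f = 2 * f * Nat.gcd 3 (q + 1) := by ring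
      _ ≤ q * Nat.gcd 3 (q + 1) := Nat.mul_le_mul_right _ h2f
  · have h5 : 3 ^ 5 ≤ q ^ 5 := Nat.pow_le_pow_left h3 5
    have h6 : q * 3 ^ 5 ≤ q * q ^ 5 := Nat.mul_le_mul_left _ h5
    have h7 : q * q ^ 5 = q ^ 6 := by ring
    omega
  · have h5 : 3 ^ 6 ≤ q ^ 6 := Nat.pow_le_pow_left h3 6
    omega

end Cfsg.Agent.H669.Hall
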